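import Cfsg.Agent.Lib.H93.G2.Mat
import Cfsg.Agent.Lib.H93.Ex.P22
import Cfsg.Agent.S1055
import Cfsg.Agent.S1059

/-!
# `G₂(3)` inside the group presented by `b, …, i`
-/

set_option autoImplicit false
set_option maxRecDepth 100000
set_option linter.all false

namespace H93.G2

open H34.O73 H34.IsoRow Matrix Cfsg.Lie
open H35.TCFi22C (Lt mm extra)

theorem simpleK : IsSimpleGroup K := (Cfsg.Agent.S1055.result (F := F3) ⟨2, by decide, by decide⟩).1

theorem cardK : Nat.card K = 4245696 := by
  have h := Cfsg.Agent.S1059.result (F := ZMod 3) (q := 3) (ZMod.card 3)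
  exact h

theorem root_cases {x : GL (Fin 2 ⊕ Fin 12) F3} (h : ∃ (r : Fin chevG2.nroots) (t : F3), (x : Matrix (Fin 2 ⊕ Fin 12) (Fin 2 ⊕ Fin 12) F3) = chevG2.xMat F3 r t) :
    ∃ (r : Fin 12) (t : Fin 3), (x : Matrix (Fin 2 ⊕ Fin 12) (Fin 2 ⊕ Fin 12) F3) = xM r t := by
  obtain ⟨r, t, e⟩ := h
  exact ⟨r, t, e⟩

theorem triv_word : ∀ (r : Fin 12) (t : Fin 3),
    (∀ k : Fin 7, vec ((List.replicate t.val (wd r)).flatten.foldr PP (B7 k)) = vec (B7 k)) → t = 0 := by decide +kernel

def idx : Fin 14 → Fin 2 ⊕ Fin 12 := ![.inl 0, .inl 1, .inr 0, .inr 1, .inr 2, .inr 3, .inr 4, .inr 5, .inr 6, .inr 7, .inr 8, .inr 9, .inr 10, .inr 11]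

theorem idx_surj : ∀ i : Fin 2 ⊕ Fin 12, ∃ j, idx j = i := by decide +kernel

theorem xM_diag : ∀ (r : Fin 12) (i : Fin 14), xM r 0 (idx i) (idx i) = 1 := by decide +kernel

theorem xM_off : ∀ (r : Fin 12) (i j : Fin 14), i ≠ j → xM r 0 (idx i) (idx j) = 0 := by decide +kernel

theorem xM_zero (r : Fin 12) : xM r 0 = 1 := by
  ext i j
  rw [Matrix.one_apply]
  obtain ⟨i, rfl⟩ := idx_surj i
  obtain ⟨j, rfl⟩ := idx_surj j
  by_cases h : i = j
  · subst h; rw [if_pos rfl, xM_diag]
  · have hinj : ∀ i j : Fin 14, idx i = idx j → i = j := by decide +kernel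
    rw [if_neg (fun e => h (hinj i j e)), xM_off r i j h]

theorem κ_inj : Function.Injective κ := by
  have hs := simpleK
  rw [← MonoidHom.ker_eq_bot_iff]
  rcases hs.eq_bot_or_eq_top_of_normal κ.ker inferInstance with h | h
  · exact h
  exfalso
  have h1 : ∀ x : K, κ x = 1 := fun x => by
    have : x ∈ κ.ker := by rw [h]; trivial
    exact this
  have h2 : K ≤ ⊥ := by
    change Subgroup.closure _ ≤ ⊥
    rw [Subgroup.closure_le]
    rintro (g : GL (Fin 2 ⊕ Fin 12) F3) hset
    have hg : g ∈ K := Subgroup.subset_closure hset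
    obtain ⟨r, t, e⟩ := root_cases hset
    have h3 := κ_root (g := ⟨g, hg⟩) (r := r) (t := t) e
    rw [h1] at h3
    have h4 : ((List.replicate t.val (wd r)).flatten.map TT).prod = 1 := by
      apply Subtype.ext
      exact h3.symm
    have h5 : t = 0 := by
      apply triv_word r t
      intro k
      have hk : B7 k < 702 := by fin_cases k <;> decide
      rw [← act_word _ hk, h4, act_one]
    subst h5
    have h6 : (g : Matrix (Fin 2 ⊕ Fin 12) (Fin 2 ⊕ Fin 12) F3) = 1 := e.trans (xM_zero r)
    exact Units.ext h6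
  have hn : Nontrivial K := hs.toNontrivial
  obtain ⟨x, y, hxy⟩ := hn
  apply hxy
  have hx := h2 x.2
  have hy := h2 y.2
  rw [Subgroup.mem_bot] at hx hy
  exact Subtype.ext (hx.trans hy.symm)

theorem exists_gamma : ∃ γ : K →* PG mm extra, Function.Injective γ ∧
    ∀ Kb : Subgroup (PG mm extra), (∀ r, ((wd r).map (gen mm extra)).prod ∈ Kb) → γ.range ≤ Kb := by
  obtain ⟨Φ, hΦ, hΦi, hΦr⟩ := H93.Ex.exists_Phi
  set δ : PG mm extra →* GL ix F3 := (Subgroup.subtype I).comp Φ with hδ
  have hδi : Function.Injective δ := (Subgroup.subtype_injective _).comp hΦi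
  have hword : ∀ w : List Lt, δ ((w.map (gen mm extra)).prod) = (((w.map TT).prod : I) : GL ix F3) := by
    intro w
    change (Subgroup.subtype I) (Φ _) = _
    rw [map_list_prod, List.map_map]
    have : (Φ ∘ gen mm extra) = TT := funext hΦ
    rw [this]; rfl
  have hmem : ∀ Kb : Subgroup (PG mm extra), (∀ r, ((wd r).map (gen mm extra)).prod ∈ Kb) → ∀ g : K, κ g ∈ Kb.map δ := by
    intro Kb hKb g
    have h : ∀ (x : GL (Fin 2 ⊕ Fin 12) F3) (hx : x ∈ K), κ ⟨x, hx⟩ ∈ Kb.map δ := by
      intro x hx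
      induction hx using Subgroup.closure_induction with
      | mem y hy =>
        obtain ⟨r, t, e⟩ := root_cases hy
        have e1 := κ_root (g := ⟨y, Subgroup.subset_closure hy⟩) (r := r) (t := t) e
        refine ⟨((List.replicate t.val (wd r)).flatten.map (gen mm extra)).prod, ?_, (hword _).trans e1.symm⟩
        have e2 : ((List.replicate t.val (wd r)).flatten.map (gen mm extra)).prod = ((wd r).map (gen mm extra)).prod ^ t.val := by
          generalize t.val = n
          induction n with
          | zero => simp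
          | succ n ih => rw [pow_succ', ← ih, List.replicate_succ, List.flatten_cons, List.map_append, List.prod_append]
        rw [e2]
        exact Kb.pow_mem (hKb r) _
      | one =>
        have h := (Kb.map δ).one_mem
        rw [← map_one κ] at h
        exact h
      | mul a b ha hb iha ihb =>
        have h := (Kb.map δ).mul_mem iha ihb
        rw [← map_mul κ] at h
        exact h
      | inv a ha iha =>
        have h := (Kb.map δ).inv_mem iha
        rw [← map_inv κ] at h
        exact h
    exact h g g.2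
  have hr : ∀ g : K, κ g ∈ δ.range := by
    intro g
    have := hmem ⊤ (fun _ => Subgroup.mem_top _) g
    rwa [← MonoidHom.range_eq_map] at this
  set e := MonoidHom.ofInjective hδi with he
  have hev : ∀ x, ((e x : δ.range) : GL ix F3) = δ x := fun _ => rfl
  refine ⟨e.symm.toMonoidHom.comp (κ.codRestrict δ.range hr), ?_, ?_⟩
  · refine e.symm.injective.comp ?_
    intro a b hab
    apply κ_inj
    exact congrArg Subtype.val hab
  · rintro Kb hKb _ ⟨g, rfl⟩
    obtain ⟨x, hx, hxe⟩ := hmem Kb hKb g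
    have : (e.symm.toMonoidHom.comp (κ.codRestrict δ.range hr)) g = x := by
      change e.symm ⟨κ g, hr g⟩ = x
      rw [MulEquiv.symm_apply_eq]
      apply Subtype.ext
      rw [hev]; exact hxe.symm
    rw [this]; exact hx

end H93.G2
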