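import Cfsg.Agent.Lib.H93.G2.Orb

/-!
# The centralizer of `⟨l, k⟩ × ⟨τ, c⟩` is `G₂(3)`
-/

set_option autoImplicit false
set_option maxRecDepth 100000
set_option linter.all false

namespace H93.G2

open H92.Tri H92.Pair2 H93.Scan H35.TC H35.Net H34.IsoRow
open H93.Tri.L23 (G4 D4 card_conj m2 mm_m2 f f_mem τ τ_mem X X_le X_iso τ_Q τ_comm τ_odd)
open H93.Tri.L24 (L Q mem_L nl card_L lk_nc eq_of_three bc_ne)
open H35.Fi24Base (gP sqP hpP invP)
open H35.Fi24Main (fin φ hφ)
open H35.TCFi22C (mm extra)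

/-- the word of `τ` -/
def tw : List H35.TCF24A.Lt := [.b, .c, .d, .e, .f, .g, .h, .b, .c, .d, .e, .f, .g, .h, .b, .c, .d, .e, .f, .g, .h, .b, .c, .d, .e, .f, .g, .h,
  .b, .c, .d, .e, .f, .g, .h, .b, .c, .d, .e, .f, .g, .h, .b, .c, .d, .e, .f, .g, .h, .b, .c, .d, .e, .f, .g, .h, .b, .c, .d, .e, .f, .g, .h]

theorem tw_eq : (tw.map gP).prod = τ := by
  rw [τ]
  simp only [pow_succ, pow_zero, one_mul, f, m2, tw, List.map_cons, List.map_nil, List.prod_cons, List.prod_nil, mul_one, mul_assoc]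

theorem τc : Nat.beq (ptW H93.Cen.NF24.pt tw 172160) 246138 = true := by decide +kernel
theorem lc : Nat.beq (H93.Cen.NF24.pt .l 172160) 172160 = true := by decide +kernel
theorem kc : Nat.beq (H93.Cen.NF24.pt .k 172160) 172160 = true := by decide +kernel

noncomputable def wchk (r : Fin 12) : Bool := Nat.beq (ptW H93.Cen.NF24.pt ((wd r).map m2) 172160) 172160 ||
  Nat.beq (ptW H93.Cen.NF24.pt ((wd r).map m2) 246138) 172160

theorem wchk_all : ∀ r, wchk r = true := by decide +kernel

noncomputable abbrev c : G4 := C 172160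

theorem comm_of_fix {g : G4} {b : ℕ} (hb : b < 306936) (h : φ g b = b) : Commute g (C b) := by
  have h1 := cc_conj H35.FiClass24.data g hb
  rw [h] at h1
  exact (mul_inv_eq_iff_eq_mul.1 h1.symm)

theorem cD : c ∈ D4 := by
  have h := cc_mem H35.FiClass24.data (b := 172160) (by norm_num)
  change cc H35.FiClass24.data 172160 ∈ H35.FiClass24.D
  rw [H35.FiClass24.D_eq]
  exact h

theorem c_l : Commute (gP .l) c := comm_of_fix (by norm_num) (by rw [φ_letter]; exact Nat.eq_of_beq_eq_true lc)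
theorem c_k : Commute (gP .k) c := comm_of_fix (by norm_num) (by rw [φ_letter]; exact Nat.eq_of_beq_eq_true kc)

theorem φτ : φ τ 172160 = 246138 := by
  rw [← tw_eq, φ_word]; exact Nat.eq_of_beq_eq_true τc

theorem τ_nc : ¬ Commute τ c := by
  intro h
  have h1 := cc_conj H35.FiClass24.data τ (b := 172160) (by norm_num)
  rw [φτ, h.eq, mul_inv_cancel_right] at h1
  have h2 := cc_inj H35.FiClass24.data (by norm_num) (by norm_num) h1
  exact absurd h2 (by norm_num)

theorem c_Q : c ∈ Q := by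
  refine ⟨⟨cD, ?_, c_l⟩, ⟨cD, ?_, c_k⟩⟩
  · intro h
    have := c_k
    rw [h] at this
    exact lk_nc this.symm
  · intro h
    have := c_l
    rw [h] at this
    exact lk_nc this

/-- the centralizer -/
noncomputable abbrev Y : Subgroup G4 := X ⊓ Subgroup.centralizer ({c} : Set G4)

theorem τ_notMem : τ ∉ Y := by
  intro h
  have h1 : τ ∈ Subgroup.centralizer ({c} : Set G4) := h.2
  rw [Subgroup.mem_centralizer_singleton_iff] at h1
  exact τ_nc h1

theorem card_Y_mul : Nat.card Y * {y : G4 | ∃ g ∈ X, g * c * g⁻¹ = y}.ncard = 2 * 4585351680 := by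
  have hfin : Finite G4 := fin
  rw [card_conj X c, facts.2.2]

theorem card_Y_le : Nat.card Y ≤ 4245696 := by
  have h1 := card_Y_mul
  have h2 : 2160 ≤ {y : G4 | ∃ g ∈ X, g * c * g⁻¹ = y}.ncard := orbit_ge T_root T_chkA T_chkM T_last (by norm_num)
  have h3 : Nat.card Y * 2160 ≤ 4245696 * 2160 := by
    calc Nat.card Y * 2160 ≤ Nat.card Y * {y : G4 | ∃ g ∈ X, g * c * g⁻¹ = y}.ncard := Nat.mul_le_mul_left _ h2
      _ = 4245696 * 2160 := by rw [h1]
  exact Nat.le_of_mul_le_mul_right h3 (by norm_num)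

theorem word_mem (w : List H35.TCFi22C.Lt) : (w.map f).prod ∈ X :=
  Subgroup.list_prod_mem _ (by
    intro x hx
    obtain ⟨y, -, rfl⟩ := List.mem_map.1 hx
    exact Subgroup.subset_closure ⟨y, rfl⟩)

theorem f_word (w : List H35.TCFi22C.Lt) : (w.map f).prod = ((w.map m2).map gP).prod := by
  rw [List.map_map]; rfl

theorem main_Y : Nonempty (↥Y ≃* ↥(Cfsg.Lie.chevG2.group (ZMod 3))) ∧ Nat.card Y = 4245696 ∧
    ∃ q : ↥Y →* PG mm extra, Function.Injective q ∧
      ∀ (w : List H35.TCFi22C.Lt) (hw : (w.map f).prod ∈ Y), q ⟨(w.map f).prod, hw⟩ = (w.map (gen mm extra)).prod := by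
  have hfin : Finite G4 := fin
  obtain ⟨q, hq, hqs, hqk⟩ := exists_qX
  obtain ⟨γ, hγi, hγ⟩ := exists_gamma
  obtain ⟨hτQ, hτc, -⟩ := facts
  have hfinP : Finite (PG mm extra) := Finite.of_surjective q hqs
  have hτX : τ ∈ X := by
    rw [← CLτ]
    refine ⟨τ_mem, ?_⟩
    change τ ∈ Subgroup.centralizer ({τ} : Set G4)
    rw [Subgroup.mem_centralizer_singleton_iff]
  set qY : ↥Y →* PG mm extra := q.comp (Subgroup.inclusion inf_le_left) with hqY
  have hinj : Function.Injective qY := by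
    rw [injective_iff_map_eq_one]
    intro z hz
    rcases hqk _ hz with h | h
    · exact Subtype.ext h
    · exfalso
      have h : (z : G4) = τ := h
      exact τ_notMem (h ▸ z.2)
  have hqw : ∀ (w : List H35.TCFi22C.Lt), q ⟨(w.map f).prod, word_mem w⟩ = (w.map (gen mm extra)).prod := by
    intro w
    induction w with
    | nil =>
      have : (⟨(([] : List H35.TCFi22C.Lt).map f).prod, word_mem []⟩ : ↥X) = 1 := rfl
      rw [this, map_one]; rfl
    | cons x w ih =>
      have hfx : f x ∈ X := Subgroup.subset_closure ⟨x, rfl⟩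
      have h0 : (⟨((x :: w).map f).prod, word_mem (x :: w)⟩ : ↥X) = ⟨f x, hfx⟩ * ⟨(w.map f).prod, word_mem w⟩ :=
        Subtype.ext (by simp)
      rw [h0, map_mul, ih, hq x hfx, List.map_cons, List.prod_cons]
  have hqτ : q ⟨τ, hτX⟩ = 1 := by
    -- τ is central in X, so its image is central in a simple group
    obtain ⟨e⟩ := H93.Tri.O7.pg_iso
    have hPGs : IsSimpleGroup (PG mm extra) := (e.isSimpleGroup_congr).2 H93.Tri.O7.simple
    have h1 : q ⟨τ, hτX⟩ ∈ Subgroup.center (PG mm extra) := by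
      rw [Subgroup.mem_center_iff]
      intro y
      obtain ⟨z, rfl⟩ := hqs y
      rw [← map_mul, ← map_mul]
      congr 1
      apply Subtype.ext
      change (z : G4) * τ = τ * z
      have h2 : (z : G4) ∈ L ⊓ Subgroup.centralizer ({τ} : Set G4) := by rw [CLτ]; exact z.2
      exact Subgroup.mem_centralizer_singleton_iff.1 h2.2
    rcases (inferInstance : (Subgroup.center (PG mm extra)).Normal).eq_bot_or_eq_top with h2 | h2
    · rw [h2, Subgroup.mem_bot] at h1; exact h1
    · exfalso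
      obtain ⟨Φ, hΦ, -, -⟩ := H93.Ex.exists_Phi
      apply H34.O73.TT_ncomm
      rw [← hΦ, ← hΦ, ← map_mul, ← map_mul]
      congr 1
      have h3 : gen mm extra .c ∈ Subgroup.center (PG mm extra) := by rw [h2]; trivial
      exact Subgroup.mem_center_iff.1 h3 _
  have hmem : ∀ r, ((wd r).map (gen mm extra)).prod ∈ qY.range := by
    intro r
    have h := wchk_all r
    rw [wchk, Bool.or_eq_true] at h
    rcases h with h | h
    · have h1 : Commute ((wd r).map f).prod c := by
        apply comm_of_fix (by norm_num)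
        rw [f_word, φ_word]; exact Nat.eq_of_beq_eq_true h
      have h2 : ((wd r).map f).prod ∈ Y := ⟨word_mem _, by
        change ((wd r).map f).prod ∈ Subgroup.centralizer ({c} : Set G4)
        rw [Subgroup.mem_centralizer_singleton_iff]; exact h1⟩
      exact ⟨⟨_, h2⟩, hqw _⟩
    · have h1 : Commute (((wd r).map f).prod * τ) c := by
        apply comm_of_fix (by norm_num)
        rw [map_mul, Equiv.Perm.mul_apply, φτ, f_word, φ_word]; exact Nat.eq_of_beq_eq_true h
      have h2 : ((wd r).map f).prod * τ ∈ Y := ⟨X.mul_mem (word_mem _) hτX, by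
        change ((wd r).map f).prod * τ ∈ Subgroup.centralizer ({c} : Set G4)
        rw [Subgroup.mem_centralizer_singleton_iff]; exact h1⟩
      refine ⟨⟨_, h2⟩, ?_⟩
      change q ⟨((wd r).map f).prod * τ, _⟩ = _
      have h3 : (⟨((wd r).map f).prod * τ, h2.1⟩ : ↥X) = ⟨((wd r).map f).prod, word_mem _⟩ * ⟨τ, hτX⟩ := rfl
      rw [h3, map_mul, hqτ, mul_one, hqw]
  have hle := hγ _ hmem
  have c1 : Nat.card γ.range = 4245696 := by
    rw [← Nat.card_congr (MonoidHom.ofInjective hγi).toEquiv]; exact cardK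
  have c2 : Nat.card qY.range = Nat.card Y := (Nat.card_congr (MonoidHom.ofInjective hinj).toEquiv).symm
  have heq : γ.range = qY.range := Subgroup.eq_of_le_of_card_ge hle (by rw [c1, c2]; exact card_Y_le)
  refine ⟨⟨((MonoidHom.ofInjective hinj).trans (MulEquiv.subgroupCongr heq.symm)).trans (MonoidHom.ofInjective hγi).symm⟩, ?_,
    qY, hinj, ?_⟩
  · rw [← c2, ← heq, c1]
  · intro w hw
    exact hqw w

theorem cent_eq : Subgroup.centralizer ({gP .l, gP .k, τ, c} : Set G4) = Y := by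
  ext z
  have h1 : z ∈ Y ↔ (z ∈ L ∧ z * τ = τ * z) ∧ z * c = c * z := by
    have h2 : z ∈ X ↔ z ∈ L ∧ z * τ = τ * z := by
      rw [← CLτ, Subgroup.mem_inf, Subgroup.mem_centralizer_singleton_iff]
    rw [Subgroup.mem_inf, h2, Subgroup.mem_centralizer_singleton_iff]
  rw [h1, mem_L, Subgroup.mem_centralizer_iff]
  constructor
  · intro h
    exact ⟨⟨⟨(h _ (by simp)).symm, (h _ (by simp)).symm⟩, (h _ (by simp)).symm⟩, (h _ (by simp)).symm⟩
  · rintro ⟨⟨⟨a1, a2⟩, a3⟩, a4⟩ y (rfl | rfl | rfl | hy)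
    · exact a1.eq.symm
    · exact a2.eq.symm
    · exact a3.symm
    · rw [Set.mem_singleton_iff.1 hy]; exact a4.symm

end H93.G2
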