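import Cfsg.Agent.Lib.H93.G2.Gam
import Cfsg.Agent.Lib.H93.G2.Tree
import Cfsg.Agent.Lib.H93.Tri.L23b
import Cfsg.Agent.Lib.H93.Cen.CenKit

/-!
# `G₂(3)` as the centralizer of four transpositions of Fi24
-/

set_option autoImplicit false
set_option maxRecDepth 100000
set_option linter.all false

namespace H93.G2

open H92.Tri H92.Pair2 H93.Scan H35.TC H35.Net H34.IsoRow
open H93.Tri.L23 (G4 D4 card_conj m2 mm_m2 f f_mem τ τ_mem X X_le X_iso τ_Q τ_comm τ_odd)
open H93.Tri.L24 (L Q mem_L nl card_L lk_nc eq_of_three bc_ne)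
open H35.Fi24Base (gP sqP hpP invP)
open H35.Fi24Main (fin φ hφ)
open H35.TCFi22C (mm extra)

/-- the transposition of a point -/
noncomputable abbrev C (b : ℕ) : G4 := cc H35.FiClass24.data b

theorem φ_word (w : List H35.TCF24A.Lt) (b : ℕ) : φ ((w.map gP).prod) b = ptW H93.Cen.NF24.pt w b := by
  rw [word_map hφ, ptW_eq H93.Cen.NF24.pt_eq]

theorem φ_letter (x : H35.TCF24A.Lt) (b : ℕ) : φ (gP x) b = H93.Cen.NF24.pt x b := by
  rw [hφ, H93.Cen.NF24.pt_eq]

theorem lt8_mem (k : ℕ) : gP (lt8 k) ∈ X := by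
  have h : ∀ y, gP (m2 y) ∈ X := fun y => Subgroup.subset_closure ⟨y, rfl⟩
  match k with
  | 0 => exact h .b
  | 1 => exact h .c
  | 2 => exact h .d
  | 3 => exact h .e
  | 4 => exact h .f
  | 5 => exact h .g
  | 6 => exact h .h
  | (n + 7) => exact h .i

theorem reach {PA PR n root : ℕ} (hroot : Nat.beq (pA PA 0) root = true) (hA : allB (chkA PA PR) n = true) :
    ∀ i, i < n → ∃ g ∈ X, φ g root = pA PA i := by
  intro i
  induction i using Nat.strong_induction_on with
  | _ i ih =>
    intro hi
    rcases Nat.eq_zero_or_pos i with rfl | hpos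
    · exact ⟨1, X.one_mem, by rw [map_one]; exact (Nat.eq_of_beq_eq_true hroot).symm⟩
    · have h := allB_spec hA i hi
      have hb : Nat.beq i 0 = false := by
        cases hb : Nat.beq i 0 with
        | false => rfl
        | true => have := Nat.eq_of_beq_eq_true hb; omega
      rw [chkA, hb] at h
      have h' : (Nat.blt (Nat.shiftRight (pR PR i) 3) i &&
        Nat.beq (H93.Cen.NF24.pt (lt8 (Nat.land (pR PR i) 7)) (pA PA (Nat.shiftRight (pR PR i) 3))) (pA PA i)) = true := h
      rw [Bool.and_eq_true] at h'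
      obtain ⟨h1, h2⟩ := h'
      have h1' : Nat.shiftRight (pR PR i) 3 < i := by simpa using h1
      obtain ⟨g, hg, e⟩ := ih _ h1' (lt_trans h1' hi)
      refine ⟨gP (lt8 (Nat.land (pR PR i) 7)) * g, X.mul_mem (lt8_mem _) hg, ?_⟩
      rw [map_mul, Equiv.Perm.mul_apply, e, φ_letter]
      exact Nat.eq_of_beq_eq_true h2

theorem orbit_ge {PA PR PM n root : ℕ} (hroot : Nat.beq (pA PA 0) root = true) (hA : allB (chkA PA PR) n = true)
    (hM : allB (chkM PA PM n) (n - 1) = true) (hlast : Nat.blt (pM PM (n - 1)) n = true) (hrN : root < 306936) :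
    n ≤ {y : G4 | ∃ g ∈ X, g * C root * g⁻¹ = y}.ncard := by
  have hfin : Finite G4 := fin
  rcases Nat.eq_zero_or_pos n with rfl | hn
  · exact Nat.zero_le _
  have hlt : ∀ j, j < n → pM PM j < n := by
    intro j hj
    by_cases h : j < n - 1
    · have h1 := allB_spec hM j h
      simp only [chkM, Bool.and_eq_true] at h1
      simpa using h1.1
    · have : j = n - 1 := by omega
      rw [this]; simpa using hlast
  have hstep : ∀ j, j + 1 < n → pA PA (pM PM j) < pA PA (pM PM (j + 1)) := by
    intro j hj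
    have h1 := allB_spec hM j (by omega)
    simp only [chkM, Bool.and_eq_true] at h1
    simpa using h1.2
  have hmono : ∀ i j, i < j → j < n → pA PA (pM PM i) < pA PA (pM PM j) := by
    intro i j hij
    induction j, hij using Nat.le_induction with
    | base => intro hj; exact hstep i hj
    | succ j hij ih => intro hj; exact lt_trans (ih (by omega)) (hstep j hj)
  have hpN : ∀ i, i < n → pA PA i < 306936 := by
    intro i hi
    obtain ⟨g, -, e⟩ := reach hroot hA i hi
    rw [← e, H35.FiClass24.data.pres]; exact hrN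
  let F : Fin n → G4 := fun j => C (pA PA (pM PM j))
  have hF : Function.Injective F := by
    intro i j hij
    have h := cc_inj H35.FiClass24.data (hpN _ (hlt i i.2)) (hpN _ (hlt j j.2)) hij
    rcases lt_trichotomy (i : ℕ) (j : ℕ) with h1 | h1 | h1
    · exact absurd h (hmono _ _ h1 j.2).ne
    · exact Fin.ext h1
    · exact absurd h.symm (hmono _ _ h1 i.2).ne
  have hsub : Set.range F ⊆ {y : G4 | ∃ g ∈ X, g * C root * g⁻¹ = y} := by
    rintro _ ⟨j, rfl⟩
    obtain ⟨g, hg, e⟩ := reach hroot hA _ (hlt j j.2)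
    refine ⟨g, hg, ?_⟩
    rw [← cc_conj H35.FiClass24.data g hrN, e]
  have h2 := Set.ncard_le_ncard hsub (Set.toFinite _)
  have h3 : (Set.range F).ncard = n := by
    rw [← Nat.card_coe_set_eq, Nat.card_congr (Equiv.ofInjective F hF).symm, Nat.card_fin]
  omega

/-! ### the group `X` -/

theorem facts : τ ∈ Q ∧ (∀ x, Commute τ (f x)) ∧ Nat.card X = 2 * 4585351680 := by
  obtain ⟨q, hq, hql, hker⟩ := H93.Cen.C24.exists_q
  exact ⟨τ_Q hq hql hker, τ_comm hq hql hker, (X_iso hq hql hker).2⟩

theorem CLτ : L ⊓ Subgroup.centralizer ({τ} : Set G4) = X := by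
  have hfin : Finite G4 := fin
  obtain ⟨hτQ, hτc, hX⟩ := facts
  symm
  apply Subgroup.eq_of_le_of_card_ge
  · rw [X, Subgroup.closure_le]
    rintro _ ⟨x, rfl⟩
    refine ⟨f_mem x, ?_⟩
    change f x ∈ Subgroup.centralizer ({τ} : Set G4)
    rw [Subgroup.mem_centralizer_singleton_iff]
    exact (hτc x).eq.symm
  · have h1 := card_conj L τ
    have h2 : {y : G4 | ∃ g ∈ L, g * τ * g⁻¹ = y} = Q := by
      ext y
      constructor
      · rintro ⟨g, hg, rfl⟩
        have hgl := mem_L.1 hg
        have hc := hτQ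
        have ha : ∀ z : G4, Commute g z → Commute τ z → Commute (g * τ * g⁻¹) z := fun z h1 h2 =>
          (h1.mul_left h2).mul_left h1.inv_left
        refine ⟨⟨H92.Expl24.conj_mem hτQ.1.1 g, ?_, (ha _ hgl.1 hτQ.1.2.2.symm).symm⟩, ⟨H92.Expl24.conj_mem hτQ.1.1 g, ?_, (ha _ hgl.2 hτQ.2.2.2.symm).symm⟩⟩
        · intro h
          apply lk_nc
          have h3 := ha _ hgl.2 hτQ.2.2.2.symm
          rwa [h] at h3
        · intro h
          apply lk_nc
          have h3 := ha _ hgl.1 hτQ.1.2.2.symm
          rw [h] at h3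
          exact h3.symm
      · intro hy
        exact H92.Pair2.trans (by norm_num) nl (H35.FiClass24.letter_mem .l) (H35.FiClass24.letter_mem .k) lk_nc τ hτQ y hy
    have h3 := H92.Pair2.mu (by norm_num) nl (H35.FiClass24.letter_mem .l) (H35.FiClass24.letter_mem .k) lk_nc
    have h4 : Q.ncard = 3240 := h3
    rw [h2, h4, card_L] at h1
    have h5 : (6 * H93.Tri.om : ℕ) = (2 * 4585351680) * 3240 := by norm_num
    rw [h5] at h1
    rw [hX]
    exact (Nat.eq_of_mul_eq_mul_right (by norm_num) h1).le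

/-- the quotient of `X` by `τ` -/
theorem exists_qX : ∃ q : ↥X →* PG mm extra, (∀ x (hx : f x ∈ X), q ⟨f x, hx⟩ = gen mm extra x) ∧ Function.Surjective q ∧
    ∀ z : ↥X, q z = 1 → (z : G4) = 1 ∨ (z : G4) = τ := by
  have hfin : Finite G4 := fin
  obtain ⟨hτQ, hτc, -⟩ := facts
  have hm : ∀ x, f x ∈ X := fun x => Subgroup.subset_closure ⟨x, rfl⟩
  have htX : τ ∈ X := by
    rw [τ]
    exact X.pow_mem (X.mul_mem (X.mul_mem (X.mul_mem (X.mul_mem (X.mul_mem (X.mul_mem (hm _) (hm _)) (hm _)) (hm _)) (hm _)) (hm _)) (hm _)) _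
  set F : H35.TCFi22C.Lt → ↥X := fun x => ⟨f x, hm x⟩ with hF
  set t : ↥X := ⟨τ, htX⟩ with ht
  have hFt : Subgroup.closure (Set.range F) = ⊤ := by
    have h : Subgroup.map X.subtype (Subgroup.closure (Set.range F)) = Subgroup.map X.subtype ⊤ := by
      rw [MonoidHom.map_closure, ← Set.range_comp]
      have e1 : Subgroup.map X.subtype ⊤ = X := by
        rw [← MonoidHom.range_eq_map, Subgroup.range_subtype]
      refine Eq.trans ?_ e1.symm
      rfl
    exact Subgroup.map_injective X.subtype_injective h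
  have htc : ∀ x : ↥X, t * x = x * t := by
    intro x
    have hx : x ∈ Subgroup.closure (Set.range F) := by rw [hFt]; trivial
    induction hx using Subgroup.closure_induction with
    | mem y hy => obtain ⟨z, rfl⟩ := hy; exact Subtype.ext (hτc z)
    | one => rw [one_mul, mul_one]
    | mul x y _ _ hx hy => rw [← mul_assoc, hx, mul_assoc, hy, mul_assoc]
    | inv x _ hx =>
      have h1 : Commute t x := hx
      exact h1.inv_right.eq
  set Z : Subgroup ↥X := Subgroup.zpowers t with hZ
  have ht2 : t * t = 1 := Subtype.ext (nl.tri.sq _ hτQ.1.1)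
  have hZn : Z.Normal := by
    refine ⟨?_⟩
    intro n hn g
    obtain ⟨i, rfl⟩ := Subgroup.mem_zpowers_iff.1 hn
    have h1 : Commute (t ^ i) g := (show Commute t g from htc g).zpow_left i
    rw [← h1.eq, mul_inv_cancel_right]
    exact hn
  have hZm : ∀ x : ↥X, x ∈ Z ↔ x = 1 ∨ x = t := by
    intro x
    constructor
    · intro hx
      obtain ⟨i, rfl⟩ := Subgroup.mem_zpowers_iff.1 hx
      rcases Int.even_or_odd' i with ⟨j, rfl | rfl⟩
      · left
        rw [zpow_mul, zpow_two, ht2, one_zpow]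
      · right
        rw [zpow_add, zpow_mul, zpow_two, ht2, one_zpow, one_mul, zpow_one]
    · rintro (rfl | rfl)
      · exact Z.one_mem
      · exact Subgroup.mem_zpowers _
  have hpF : ∀ x y, (F x * F y) ^ mm x y = 1 := fun x y => Subtype.ext (by
    change (f x * f y) ^ mm x y = 1
    rw [mm_m2]; exact hpP _ _)
  obtain ⟨Φ, hΦ⟩ := H34.IsoRow.exists_hom (mm := mm) (ex := extra) (fun x => QuotientGroup.mk' Z (F x)) (by
    intro x y
    rw [← map_mul, ← map_pow, hpF, map_one]) (by
    intro p hp'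
    simp only [extra, List.mem_cons, List.mem_nil_iff, or_false] at hp'
    rcases hp' with rfl | rfl
    · simp only [List.map_cons, List.map_nil, List.prod_cons, List.prod_nil, mul_one]
      simp only [← map_mul, ← map_pow]
      refine (QuotientGroup.eq_one_iff _).2 ?_
      rw [hZm]
      right
      apply Subtype.ext
      change (f .b * (f .c * (f .d * (f .e * (f .f * (f .g * f .h)))))) ^ 9 = τ
      rw [τ]
      simp only [mul_assoc]
    · simp only [List.map_cons, List.map_nil, List.prod_cons, List.prod_nil, mul_one]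
      simp only [← map_mul, ← map_pow]
      refine (QuotientGroup.eq_one_iff _).2 ?_
      rw [hZm]
      left
      apply Subtype.ext
      have h := H35.Fi24Base.spiderP
      simp only [List.map_cons, List.map_nil, List.prod_cons, List.prod_nil, mul_one] at h
      exact h)
  have hΦs : Function.Surjective Φ := by
    rw [← MonoidHom.range_eq_top, eq_top_iff]
    have h1 : (⊤ : Subgroup (↥X ⧸ Z)) = Subgroup.closure (Set.range fun x => QuotientGroup.mk' Z (F x)) := by
      have h2 := congrArg (Subgroup.map (QuotientGroup.mk' Z)) hFt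
      rw [MonoidHom.map_closure, ← Set.range_comp, Subgroup.map_top_of_surjective _ (QuotientGroup.mk'_surjective Z)] at h2
      exact h2.symm
    rw [h1, Subgroup.closure_le]
    rintro _ ⟨x, rfl⟩
    exact ⟨_, hΦ x⟩
  obtain ⟨e⟩ := H93.Tri.O7.pg_iso
  have hPGs : IsSimpleGroup (PG mm extra) := (e.isSimpleGroup_congr).2 H93.Tri.O7.simple
  have hbτ : f .b ≠ τ := by
    intro h
    have h1 : Commute (f .b) (f .c) := by rw [h]; exact hτc .c
    exact bc_ne (eq_of_three (sqP _) (sqP _) (hpP .b .c) h1)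
  have hb1 : f .b ≠ 1 := by
    intro h
    have h1 : (f .b) ∈ D4 := H35.FiClass24.letter_mem _
    rw [h] at h1
    exact H92.Expl24.one_notMem h1
  have hΦi : Function.Injective Φ := by
    rw [← MonoidHom.ker_eq_bot_iff]
    rcases hPGs.eq_bot_or_eq_top_of_normal Φ.ker inferInstance with h | h
    · exact h
    · exfalso
      have h1 : Φ (gen mm extra .b) = 1 := by
        have : gen mm extra .b ∈ Φ.ker := by rw [h]; trivial
        exact this
      rw [hΦ] at h1
      have h2 : F .b ∈ Z := (QuotientGroup.eq_one_iff _).1 h1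
      rcases (hZm _).1 h2 with h3 | h3
      · exact hb1 (congrArg Subtype.val h3)
      · exact hbτ (congrArg Subtype.val h3)
  set e2 : PG mm extra ≃* ↥X ⧸ Z := MulEquiv.ofBijective Φ ⟨hΦi, hΦs⟩ with he2
  refine ⟨e2.symm.toMonoidHom.comp (QuotientGroup.mk' Z), ?_, e2.symm.surjective.comp (QuotientGroup.mk'_surjective Z), ?_⟩
  · intro x hx
    change e2.symm (QuotientGroup.mk' Z (F x)) = gen mm extra x
    rw [MulEquiv.symm_apply_eq]
    exact (hΦ x).symm
  · intro z hz
    have hz : e2.symm (QuotientGroup.mk' Z z) = 1 := hz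
    rw [map_eq_one_iff e2.symm e2.symm.injective] at hz
    have h5 : z ∈ Z := (QuotientGroup.eq_one_iff _).1 hz
    rcases (hZm _).1 h5 with h | h
    · left; rw [h]; rfl
    · right; rw [h]

end H93.G2
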